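import Mathlib

/-!
A rank one Bruhat parity lemma: a sign character of a subgroup `B` extends to the whole group
`G = B ∪ B s B` once it is compatible with conjugation by the involution `s`.
-/

set_option autoImplicit false

namespace Cfsg.Agent.Lib.ZassEven

open MulAction

/-- Rank one Bruhat parity. -/
theorem exists_hom_of_bruhat {G : Type*} [Group G] (B : Subgroup G) (s : G) (hs : s * s = 1)
    (hsB : s ∉ B)
    (hG : ∀ g, g ∉ B → ∃ b₁ ∈ B, ∃ b₂ ∈ B, g = b₁ * s * b₂)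
    (χ : G → ℤˣ) (hχ : ∀ x ∈ B, ∀ y ∈ B, χ (x * y) = χ x * χ y)
    (E : ℤˣ)
    (h1 : ∀ b ∈ B, s * b * s ∈ B → χ (s * b * s) = χ b)
    (h2 : ∀ b ∈ B, s * b * s ∉ B →
      ∃ b₁ ∈ B, ∃ b₂ ∈ B, s * b * s = b₁ * s * b₂ ∧ χ b₁ * χ b₂ * E = χ b) :
    ∃ ε : G →* ℤˣ, ∀ b ∈ B, ε b = χ b := by
  classical
  have hsi : s⁻¹ = s := inv_eq_of_mul_eq_one_left hs
  have hsq : ∀ u : ℤˣ, u * u = 1 := fun u => Int.units_mul_self u
  have hχ1 : χ 1 = 1 := by
    have h := hχ 1 B.one_mem 1 B.one_mem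
    rw [mul_one] at h
    have h3 := hsq (χ 1)
    rw [← h] at h3
    exact h3
  have hχinv : ∀ x ∈ B, χ x⁻¹ = χ x := by
    intro x hx
    have h := hχ x hx x⁻¹ (B.inv_mem hx)
    rw [mul_inv_cancel, hχ1] at h
    have h3 : χ x * χ x = 1 := hsq _
    have h4 : χ x * χ x⁻¹ = χ x * χ x := by rw [← h, h3]
    exact mul_left_cancel h4
  -- well defined
  have hwd : ∀ b₁ ∈ B, ∀ b₂ ∈ B, ∀ c₁ ∈ B, ∀ c₂ ∈ B, b₁ * s * b₂ = c₁ * s * c₂ →
      χ b₁ * χ b₂ = χ c₁ * χ c₂ := by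
    intro b₁ hb₁ b₂ hb₂ c₁ hc₁ c₂ hc₂ h
    have hx : c₁⁻¹ * b₁ ∈ B := B.mul_mem (B.inv_mem hc₁) hb₁
    have hy : c₂ * b₂⁻¹ ∈ B := B.mul_mem hc₂ (B.inv_mem hb₂)
    have h3 : s * (c₁⁻¹ * b₁) * s = c₂ * b₂⁻¹ := by
      have h4 : b₁ * s = c₁ * s * (c₂ * b₂⁻¹) := by
        calc b₁ * s = b₁ * s * b₂ * b₂⁻¹ := by group
          _ = c₁ * s * c₂ * b₂⁻¹ := by rw [h]
          _ = c₁ * s * (c₂ * b₂⁻¹) := by group
      calc s * (c₁⁻¹ * b₁) * s = s * c₁⁻¹ * (b₁ * s) := by group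
        _ = s * c₁⁻¹ * (c₁ * s * (c₂ * b₂⁻¹)) := by rw [h4]
        _ = (s * s) * (c₂ * b₂⁻¹) := by group
        _ = c₂ * b₂⁻¹ := by rw [hs, one_mul]
    have h5 := h1 _ hx (by rw [h3]; exact hy)
    rw [h3, hχ _ hc₂ _ (B.inv_mem hb₂), hχ _ (B.inv_mem hc₁) _ hb₁, hχinv _ hb₂, hχinv _ hc₁] at h5
    -- χ c₂ * χ b₂ = χ c₁ * χ b₁
    calc χ b₁ * χ b₂ = χ b₂ * χ b₁ := mul_comm _ _
      _ = χ b₂ * χ b₁ * ((χ c₁ * χ c₁)) := by rw [hsq, mul_one]
      _ = χ b₂ * (χ c₁ * χ b₁) * χ c₁ := by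
          simp only [mul_assoc, mul_comm, mul_left_comm]
      _ = χ b₂ * (χ c₂ * χ b₂) * χ c₁ := by rw [h5]
      _ = (χ b₂ * χ b₂) * (χ c₂ * χ c₁) := by
          simp only [mul_assoc, mul_comm, mul_left_comm]
      _ = χ c₁ * χ c₂ := by rw [hsq, one_mul, mul_comm]
  have hnotB : ∀ b₁ ∈ B, ∀ b₂ ∈ B, b₁ * s * b₂ ∉ B := by
    intro b₁ hb₁ b₂ hb₂ h
    apply hsB
    have h3 : s = b₁⁻¹ * (b₁ * s * b₂) * b₂⁻¹ := by group
    rw [h3]
    exact B.mul_mem (B.mul_mem (B.inv_mem hb₁) h) (B.inv_mem hb₂)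
  -- the function
  let ε : G → ℤˣ := fun g =>
    if hg : g ∈ B then χ g
    else E * (χ (hG g hg).choose * χ (hG g hg).choose_spec.2.choose)
  have hεB : ∀ g ∈ B, ε g = χ g := by
    intro g hg
    simp only [ε, dif_pos hg]
  have hεs : ∀ b₁ ∈ B, ∀ b₂ ∈ B, ε (b₁ * s * b₂) = E * (χ b₁ * χ b₂) := by
    intro b₁ hb₁ b₂ hb₂
    have hg := hnotB b₁ hb₁ b₂ hb₂
    simp only [ε, dif_neg hg]
    have hc₁ := (hG _ hg).choose_spec.1
    have hc₂ := (hG _ hg).choose_spec.2.choose_spec.1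
    have hc₃ := (hG _ hg).choose_spec.2.choose_spec.2
    rw [hwd _ hc₁ _ hc₂ _ hb₁ _ hb₂ hc₃.symm]
  have hleft : ∀ b ∈ B, ∀ g, ε (b * g) = χ b * ε g := by
    intro b hb g
    by_cases hg : g ∈ B
    · rw [hεB _ (B.mul_mem hb hg), hεB _ hg, hχ _ hb _ hg]
    · obtain ⟨b₁, hb₁, b₂, hb₂, rfl⟩ := hG g hg
      have h3 : b * (b₁ * s * b₂) = (b * b₁) * s * b₂ := by group
      rw [h3, hεs _ (B.mul_mem hb hb₁) _ hb₂, hεs _ hb₁ _ hb₂, hχ _ hb _ hb₁]
      simp only [mul_assoc, mul_comm, mul_left_comm]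
  have hleft_s : ∀ g, ε (s * g) = E * ε g := by
    intro g
    by_cases hg : g ∈ B
    · have h3 : s * g = 1 * s * g := by group
      rw [h3, hεs _ B.one_mem _ hg, hχ1, one_mul, hεB _ hg]
    · obtain ⟨b₁, hb₁, b₂, hb₂, rfl⟩ := hG g hg
      rw [hεs _ hb₁ _ hb₂]
      by_cases h3 : s * b₁ * s ∈ B
      · have h4 : s * (b₁ * s * b₂) = (s * b₁ * s) * b₂ := by group
        rw [h4, hεB _ (B.mul_mem h3 hb₂), hχ _ h3 _ hb₂, h1 _ hb₁ h3, ← mul_assoc, hsq, one_mul]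
      · obtain ⟨c₁, hc₁, c₂, hc₂, hc, hcE⟩ := h2 _ hb₁ h3
        have h4 : s * (b₁ * s * b₂) = c₁ * s * (c₂ * b₂) := by
          calc s * (b₁ * s * b₂) = (s * b₁ * s) * b₂ := by group
            _ = c₁ * s * c₂ * b₂ := by rw [hc]
            _ = c₁ * s * (c₂ * b₂) := by group
        rw [h4, hεs _ hc₁ _ (B.mul_mem hc₂ hb₂), hχ _ hc₂ _ hb₂, ← mul_assoc (E) (E), hsq, one_mul,
          ← hcE]
        simp only [mul_assoc, mul_comm, mul_left_comm]
  have hmul : ∀ g g' : G, ε (g * g') = ε g * ε g' := by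
    intro g g'
    by_cases hg : g ∈ B
    · rw [hleft _ hg, hεB _ hg]
    · obtain ⟨b₁, hb₁, b₂, hb₂, rfl⟩ := hG g hg
      have h3 : b₁ * s * b₂ * g' = b₁ * (s * (b₂ * g')) := by group
      rw [h3, hleft _ hb₁, hleft_s, hleft _ hb₂, hεs _ hb₁ _ hb₂]
      simp only [mul_assoc, mul_comm, mul_left_comm]
  exact ⟨MonoidHom.mk' ε hmul, fun b hb => hεB b hb⟩

section Zass

variable {G Ω : Type*} [Group G] [MulAction G Ω]

/-- The sign character of the two-point stabiliser extends to the whole group when that stabiliser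
is transitive on the remaining points. -/
theorem exists_parity {a b : Ω} (hab : a ≠ b) {F : Subgroup G}
    (hFa : F ≤ stabilizer G a)
    (hFreg : ∀ y z : Ω, y ≠ a → z ≠ a → ∃! u : F, (u : G) • y = z)
    (hFconj : ∀ {g u : G}, g • a = a → u ∈ F → g * u * g⁻¹ ∈ F)
    (htr : ∀ x y : Ω, x ≠ a → x ≠ b → y ≠ a → y ≠ b →
      ∃ e ∈ stabilizer G a ⊓ stabilizer G b, e • x = y)
    {s : G} (hsa : s • a = b) (hsb : s • b = a) (hss : s * s = 1)
    {t₀ : G} (ht₀ : t₀ ∈ F) (ht₀1 : t₀ ≠ 1)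
    (χ : G → ℤˣ)
    (hχ : ∀ x ∈ (stabilizer G a ⊓ stabilizer G b : Subgroup G),
      ∀ y ∈ (stabilizer G a ⊓ stabilizer G b : Subgroup G), χ (x * y) = χ x * χ y)
    (hσ : ∀ h ∈ (stabilizer G a ⊓ stabilizer G b : Subgroup G), χ (s * h * s) = χ h) :
    ∃ ε : G →* ℤˣ, (∀ t ∈ F, ε t = 1) ∧
      ∀ h ∈ (stabilizer G a ⊓ stabilizer G b : Subgroup G), ε h = χ h := by
  classical
  set H : Subgroup G := stabilizer G a ⊓ stabilizer G b with hH
  set B : Subgroup G := stabilizer G a with hB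
  have hsi : s⁻¹ = s := inv_eq_of_mul_eq_one_left hss
  have hsq : ∀ u : ℤˣ, u * u = 1 := fun u => Int.units_mul_self u
  have hba : b ≠ a := Ne.symm hab
  have hχ1 : χ 1 = 1 := by
    have h := hχ 1 H.one_mem 1 H.one_mem
    rw [mul_one] at h
    have h3 := hsq (χ 1)
    rw [← h] at h3
    exact h3
  have hHB : H ≤ B := inf_le_left
  have hFB : F ≤ B := hFa
  have hne : ∀ g ∈ B, g • b ≠ a := by
    intro g hg h0
    apply hba
    have h1 : g • a = a := hg
    exact smul_left_cancel g (h0.trans h1.symm)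
  have hFb : ∀ u ∈ F, u • b = b → u = 1 := by
    intro u hu h0
    obtain ⟨w, -, hw⟩ := hFreg b b hba hba
    have h1 : (⟨u, hu⟩ : F) = w := hw _ h0
    have h2 : (1 : F) = w := hw _ (by simp)
    exact congrArg Subtype.val (h1.trans h2.symm)
  have hFinj : ∀ u ∈ F, ∀ v ∈ F, u • b = v • b → u = v := by
    intro u hu v hv h0
    have h1 : (v⁻¹ * u) • b = b := by rw [mul_smul, h0, inv_smul_smul]
    have h2 := hFb _ (F.mul_mem (F.inv_mem hv) hu) h1
    rw [inv_mul_eq_one] at h2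
    exact h2.symm
  have hdec : ∀ g ∈ B, ∃ t ∈ F, ∃ h ∈ H, g = t * h := by
    intro g hg
    obtain ⟨u, hu, -⟩ := hFreg b (g • b) hba (hne g hg)
    refine ⟨u, u.2, (u : G)⁻¹ * g, ⟨?_, ?_⟩, by group⟩
    · show ((u : G)⁻¹ * g) • a = a
      have h1 : g • a = a := hg
      have h2 : (u : G) • a = a := hFa u.2
      rw [mul_smul, h1, inv_smul_eq_iff, h2]
    · show ((u : G)⁻¹ * g) • b = b
      rw [mul_smul, inv_smul_eq_iff, hu]
  choose! t ht k hk hfac using hdec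
  have hkfac : ∀ u ∈ F, ∀ h ∈ H, k (u * h) = h := by
    intro u hu h hh
    have hm : u * h ∈ B := B.mul_mem (hFB hu) (hHB hh)
    have h1 := hfac _ hm
    have h2 : (u * h) • b = u • b := by
      rw [mul_smul, show h • b = b from hh.2]
    have h3 : (t (u * h) * k (u * h)) • b = t (u * h) • b := by
      rw [mul_smul, show k (u * h) • b = b from (hk _ hm).2]
    rw [← h1] at h3
    have h4 := hFinj _ hu _ (ht _ hm) (h2.symm.trans h3)
    have h5 : u * h = u * k (u * h) := by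
      calc u * h = t (u * h) * k (u * h) := h1
        _ = u * k (u * h) := by rw [← h4]
    exact (mul_left_cancel h5).symm
  have hkH : ∀ h ∈ H, k h = h := by
    intro h hh
    have h1 := hkfac 1 F.one_mem h hh
    rwa [one_mul] at h1
  let χ' : G → ℤˣ := fun g => χ (k g)
  have hχ'H : ∀ h ∈ H, χ' h = χ h := by
    intro h hh
    show χ (k h) = χ h
    rw [hkH h hh]
  have hχ'mul : ∀ x ∈ B, ∀ y ∈ B, χ' (x * y) = χ' x * χ' y := by
    intro x hx y hy
    have h1 : x * y = (t x * (k x * t y * (k x)⁻¹)) * (k x * k y) := by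
      calc x * y = (t x * k x) * (t y * k y) := by rw [← hfac x hx, ← hfac y hy]
        _ = _ := by group
    have h2 : t x * (k x * t y * (k x)⁻¹) ∈ F :=
      F.mul_mem (ht x hx) (hFconj (hk x hx).1 (ht y hy))
    show χ (k (x * y)) = χ (k x) * χ (k y)
    rw [h1, hkfac _ h2 _ (H.mul_mem (hk x hx) (hk y hy)), hχ _ (hk x hx) _ (hk y hy)]
  have hsB : s ∉ B := by
    intro h0
    have h1 : s • a = a := h0
    exact hab (h1.symm.trans hsa)
  have hG : ∀ g, g ∉ B → ∃ b₁ ∈ B, ∃ b₂ ∈ B, g = b₁ * s * b₂ := by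
    intro g hg
    have hga : g • a ≠ a := hg
    obtain ⟨u, hu, -⟩ := hFreg b (g • a) hba hga
    refine ⟨u, hFa u.2, s * (u : G)⁻¹ * g, ?_, ?_⟩
    · show (s * (u : G)⁻¹ * g) • a = a
      rw [mul_smul, mul_smul, ← hu, inv_smul_smul, hsb]
    · calc g = (u : G) * (s * s) * (u : G)⁻¹ * g := by rw [hss]; group
        _ = _ := by group
  have hsFs : ∀ u ∈ F, u ≠ 1 → s * u * s ∉ B := by
    intro u hu hu1 h0
    have h1 : (s * u * s) • a = a := h0
    rw [mul_smul, mul_smul, hsa] at h1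
    have h2 : s • (u • b) = s • b := by rw [h1, hsb]
    exact hu1 (hFb u hu (smul_left_cancel s h2))
  obtain ⟨b₁, hb₁, b₂, hb₂, hb⟩ := hG _ (hsFs t₀ ht₀ ht₀1)
  have hP : ∀ u ∈ F, u ≠ 1 → ∃ c₁ ∈ B, ∃ c₂ ∈ B, s * u * s = c₁ * s * c₂ ∧
      χ' c₁ * χ' c₂ = χ' b₁ * χ' b₂ := by
    intro u hu hu1
    have hua : u • b ≠ a := hne u (hFB hu)
    have hub : u • b ≠ b := fun h0 => hu1 (hFb u hu h0)
    have hta : t₀ • b ≠ a := hne t₀ (hFB ht₀)
    have htb : t₀ • b ≠ b := fun h0 => ht₀1 (hFb t₀ ht₀ h0)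
    obtain ⟨m, hm, hmx⟩ := htr _ _ hta htb hua hub
    have hmi : m⁻¹ • b = b := by
      rw [inv_smul_eq_iff]
      exact (show m • b = b from hm.2).symm
    have h1 : m * t₀ * m⁻¹ = u := by
      apply hFinj _ (hFconj hm.1 ht₀) _ hu
      rw [mul_smul, mul_smul, hmi, hmx]
    let μ := s * m * s
    have hμ : μ ∈ H := by
      constructor
      · show (s * m * s) • a = a
        rw [mul_smul, mul_smul, hsa, show m • b = b from hm.2, hsb]
      · show (s * m * s) • b = b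
        rw [mul_smul, mul_smul, hsb, show m • a = a from hm.1, hsa]
    refine ⟨μ * b₁, B.mul_mem (hHB hμ) hb₁, b₂ * μ⁻¹, B.mul_mem hb₂ (B.inv_mem (hHB hμ)), ?_, ?_⟩
    · calc s * u * s = s * (m * t₀ * m⁻¹) * s := by rw [h1]
        _ = (s * m * s) * (s * t₀ * s) * (s * m⁻¹ * s) := by
            calc s * (m * t₀ * m⁻¹) * s = s * m * 1 * t₀ * 1 * m⁻¹ * s := by group
              _ = s * m * (s * s) * t₀ * (s * s) * m⁻¹ * s := by rw [hss]
              _ = _ := by group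
        _ = μ * (b₁ * s * b₂) * (s * m⁻¹ * s) := by rw [hb]
        _ = μ * b₁ * s * (b₂ * μ⁻¹) := by
            have h2 : μ⁻¹ = s * m⁻¹ * s := by
              show (s * m * s)⁻¹ = s * m⁻¹ * s
              simp only [mul_inv_rev, hsi, mul_assoc]
            rw [h2]
            group
    · rw [hχ'mul _ (hHB hμ) _ hb₁, hχ'mul _ hb₂ _ (B.inv_mem (hHB hμ))]
      have h2 : χ' μ * χ' μ⁻¹ = 1 := by
        rw [← hχ'mul _ (hHB hμ) _ (B.inv_mem (hHB hμ)), mul_inv_cancel]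
        show χ (k 1) = 1
        rw [hkH 1 H.one_mem, hχ1]
      calc χ' μ * χ' b₁ * (χ' b₂ * χ' μ⁻¹) = (χ' μ * χ' μ⁻¹) * (χ' b₁ * χ' b₂) := by
            simp only [mul_assoc, mul_comm, mul_left_comm]
        _ = _ := by rw [h2, one_mul]
  obtain ⟨ε, hε⟩ := exists_hom_of_bruhat B s hss hsB hG χ' hχ'mul (χ' b₁ * χ' b₂)
    (by
      intro x hx h0
      have h1 : (s * x * s) • a = a := h0
      rw [mul_smul, mul_smul, hsa] at h1
      have h2 : s • (x • b) = s • b := by rw [h1, hsb]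
      have h3 : x • b = b := smul_left_cancel s h2
      have hxH : x ∈ H := ⟨hx, h3⟩
      have h4 : s * x * s ∈ H := by
        refine ⟨h0, ?_⟩
        show (s * x * s) • b = b
        rw [mul_smul, mul_smul, hsb, show x • a = a from hx, hsa]
      rw [hχ'H _ h4, hχ'H _ hxH, hσ _ hxH])
    (by
      intro x hx h0
      have hx1 := hfac x hx
      have hu1 : t x ≠ 1 := by
        intro h1
        rw [h1, one_mul] at hx1
        apply h0
        have hxH : x ∈ H := by rw [hx1]; exact hk x hx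
        show (s * x * s) • a = a
        rw [mul_smul, mul_smul, hsa, show x • b = b from hxH.2, hsb]
      obtain ⟨c₁, hc₁, c₂, hc₂, hc, hcE⟩ := hP _ (ht x hx) hu1
      let ν := s * k x * s
      have hν : ν ∈ H := by
        have hkx := hk x hx
        constructor
        · show (s * k x * s) • a = a
          rw [mul_smul, mul_smul, hsa, show k x • b = b from hkx.2, hsb]
        · show (s * k x * s) • b = b
          rw [mul_smul, mul_smul, hsb, show k x • a = a from hkx.1, hsa]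
      refine ⟨c₁, hc₁, c₂ * ν, B.mul_mem hc₂ (hHB hν), ?_, ?_⟩
      · calc s * x * s = s * (t x * k x) * s := by rw [← hx1]
          _ = (s * t x * s) * ν := by
              show s * (t x * k x) * s = (s * t x * s) * (s * k x * s)
              calc s * (t x * k x) * s = s * t x * 1 * k x * s := by group
                _ = s * t x * (s * s) * k x * s := by rw [hss]
                _ = _ := by group
          _ = c₁ * s * c₂ * ν := by rw [hc]
          _ = c₁ * s * (c₂ * ν) := by group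
      · rw [hχ'mul _ hc₂ _ (hHB hν), hχ'H _ hν]
        have h2 : χ ν = χ' x := by
          show χ (s * k x * s) = χ (k x)
          exact hσ _ (hk x hx)
        rw [h2]
        calc χ' c₁ * (χ' c₂ * χ' x) * (χ' b₁ * χ' b₂)
            = (χ' c₁ * χ' c₂) * (χ' b₁ * χ' b₂) * χ' x := by
              simp only [mul_assoc, mul_comm, mul_left_comm]
          _ = χ' x := by rw [hcE, hsq, one_mul])
  refine ⟨ε, ?_, ?_⟩
  · intro u hu
    rw [hε u (hFB hu)]
    show χ (k u) = 1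
    have h1 := hkfac u hu 1 H.one_mem
    rw [mul_one] at h1
    rw [h1, hχ1]
  · intro h hh
    rw [hε h (hHB hh), hχ'H h hh]

end Zass

end Cfsg.Agent.Lib.ZassEven
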